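/- Groups of odd order that are transitive on the pairs `±v` of a finite elementary abelian group act
semilinearly on a field. -/
import Cfsg.Agent.H69.Huppert

set_option autoImplicit false

open MulAction Cfsg

namespace H42

universe u v

section
variable {D : Type u} {E : Type v} [Group D] [Finite D] [AddCommGroup E] [Finite E]
  [DistribMulAction D E] [FaithfulSMul D E]

theorem normal_pgroup_cyclic_half (hodd : Odd (Nat.card D)) {q : ℕ} (hq : q.Prime)
    (hE : ∀ e : E, q • e = 0)
    (htrans : ∀ a b : E, a ≠ 0 → b ≠ 0 → ∃ d : D, d • a = b ∨ d • a = -b)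
    {p : ℕ} [hp : Fact p.Prime] (N : Subgroup D) [hN : N.Normal] (hP : IsPGroup p N) :
    IsCyclic N := by
  by_cases hp2 : p = 2
  · subst hp2
    have h1 : ∀ g ∈ N, g = 1 := by
      intro g hg
      obtain ⟨k, hk⟩ := hP ⟨g, hg⟩
      exact H69.eq_one_of_odd_of_pow_two_pow (Odd.of_dvd_nat hodd (orderOf_dvd_natCard g))
        (congrArg Subtype.val hk)
    have : Subsingleton N := ⟨fun a b => Subtype.ext (by rw [h1 a a.2, h1 b b.2])⟩
    infer_instance
  have hle0 : ∀ (a : E) (d : D), Nat.card (stabilizer N a) ≤ Nat.card (stabilizer N (d • a)) := by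
    intro a d
    refine Nat.card_le_card_of_injective (fun x => ⟨⟨d * x.1.1 * d⁻¹, hN.conj_mem _ x.1.2 d⟩, ?_⟩) ?_
    · show (d * x.1.1 * d⁻¹) • d • a = d • a
      rw [mul_smul, mul_smul, inv_smul_smul]
      exact congrArg _ x.2
    · intro x y h
      have h1 : d * x.1.1 * d⁻¹ = d * y.1.1 * d⁻¹ := congrArg (fun z => z.1.1) h
      exact Subtype.ext (Subtype.ext (by simpa using h1))
  have hneg : ∀ b : E, stabilizer N (-b) = stabilizer N b := by
    intro b
    ext x
    simp only [mem_stabilizer_iff, smul_neg, neg_inj]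
  have hle : ∀ a b : E, a ≠ 0 → b ≠ 0 → Nat.card (stabilizer N a) ≤ Nat.card (stabilizer N b) := by
    intro a b ha hb
    obtain ⟨d, h | h⟩ := htrans a b ha hb
    · exact h ▸ hle0 a d
    · rw [← hneg b, ← h]; exact hle0 a d
  exact (H69.cyclic_fpf_of_const_stab (P := N) (E := E) hp2 hP hq hE
    (fun a b ha hb => le_antisymm (hle a b ha hb) (hle b a hb ha))).1

theorem fitting_cyclic_half (hodd : Odd (Nat.card D)) {q : ℕ} (hq : q.Prime)
    (hE : ∀ e : E, q • e = 0)
    (htrans : ∀ a b : E, a ≠ 0 → b ≠ 0 → ∃ d : D, d • a = b ∨ d • a = -b) :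
    IsCyclic ↥(fittingSubgroup D) := by
  have : IsZGroup (fittingSubgroup D) := by
    refine ⟨fun p hp P => ?_⟩
    have : Fact p.Prime := ⟨hp⟩
    have h1 := normal_pgroup_cyclic_half hodd hq hE htrans (pCore p D) (H2.pCore_isPGroup p D)
    have h2 : (P : Subgroup (fittingSubgroup D)).map (fittingSubgroup D).subtype ≤ pCore p D :=
      H2.le_pCore_of_le_fitting (P.isPGroup'.map _) (Subgroup.map_subtype_le _)
    have h3 := Subgroup.isCyclic_of_le h2
    exact isCyclic_of_surjective _ ((P : Subgroup (fittingSubgroup D)).equivMapOfInjective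
      (fittingSubgroup D).subtype (fittingSubgroup D).subtype_injective).symm.surjective
  infer_instance

omit [Finite E] [FaithfulSMul D E] [DistribMulAction D E] [AddCommGroup E] in
theorem card_le_sq_of_cyclic_selfcent (F : Subgroup D) [F.Normal] [IsCyclic F]
    (hC : Subgroup.centralizer (F : Set D) ≤ F) : Nat.card D ≤ Nat.card F * Nat.card F := by
  have h1 : (MulAut.conjNormal (H := F)).ker ≤ F := by
    intro g hg
    refine hC fun x hx => ?_
    have h2 := congrArg Subtype.val (DFunLike.congr_fun (MonoidHom.mem_ker.mp hg) ⟨x, hx⟩)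
    simp only [MulAut.conjNormal_apply, MulAut.one_apply] at h2
    exact (mul_inv_eq_iff_eq_mul.mp h2).symm
  have h2 := (MulAut.conjNormal (H := F)).ker.card_mul_index
  rw [Subgroup.index_ker] at h2
  have h3 : Nat.card (MulAut.conjNormal (H := F)).range ≤ Nat.card F := by
    refine (Nat.card_le_card_of_injective _ Subtype.val_injective).trans ?_
    rw [IsCyclic.card_mulAut]
    exact Nat.totient_le _
  rw [← h2]
  exact Nat.mul_le_mul (Subgroup.card_le_of_le h1) h3

open scoped IsMulCommutative in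
theorem exists_field_of_half_trans [Nontrivial E] (F : Subgroup D) [hF : F.Normal] [IsCyclic F]
    (hC : Subgroup.centralizer (F : Set D) ≤ F) (hodd : Odd (Nat.card D)) (hE : Odd (Nat.card E))
    (htrans : ∀ a b : E, a ≠ 0 → b ≠ 0 → ∃ d : D, d • a = b ∨ d • a = -b) :
    ∃ (K : Type v) (_ : Field K) (e : E ≃+ K),
      ∀ d : D, ∃ (u : Kˣ) (σ : K ≃+* K), ∀ x, e (d • x) = u * σ (e x) := by
  classical
  have : Finite (AddMonoid.End E) := DFunLike.finite _
  obtain ⟨a, ha⟩ := exists_ne (0 : E)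
  let ρ : D →* AddMonoid.End E := DistribMulAction.toAddMonoidEnd D E
  have hρ : ∀ d x, ρ d x = d • x := fun _ _ => rfl
  have hcomm : ∀ x ∈ ρ '' F, ∀ y ∈ ρ '' F, x * y = y * x := by
    rintro _ ⟨a, ha, rfl⟩ _ ⟨b, hb, rfl⟩
    rw [← map_mul, ← map_mul]
    exact congrArg (fun z : F => ρ z) (mul_comm' (⟨a, ha⟩ : F) ⟨b, hb⟩)
  let K : Subring (AddMonoid.End E) := Subring.closure (ρ '' F)
  have hKc : IsMulCommutative K := Subring.isMulCommutative_closure hcomm
  have hfK : ∀ f ∈ F, ρ f ∈ K := fun f hf => Subring.subset_closure ⟨f, hf, rfl⟩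
  have hinv : ∀ d : D, ρ d⁻¹ * ρ d = 1 := fun d => by rw [← map_mul, inv_mul_cancel, map_one]
  have hinv' : ∀ d : D, ρ d * ρ d⁻¹ = 1 := fun d => by rw [← map_mul, mul_inv_cancel, map_one]
  let c : D → AddMonoid.End E →+* AddMonoid.End E := fun d =>
    { toFun := fun r => ρ d * r * ρ d⁻¹
      map_one' := by rw [mul_one, hinv']
      map_mul' := fun r s => by
        rw [show ρ d * r * ρ d⁻¹ * (ρ d * s * ρ d⁻¹) = ρ d * r * (ρ d⁻¹ * ρ d) * s * ρ d⁻¹ by
          simp only [mul_assoc], hinv, mul_one]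
        simp only [mul_assoc]
      map_zero' := by simp
      map_add' := fun r s => by rw [mul_add, add_mul] }
  have hc : ∀ d r, c d r = ρ d * r * ρ d⁻¹ := fun _ _ => rfl
  have hcK : ∀ d, ∀ r ∈ K, c d r ∈ K := by
    intro d
    have : K ≤ K.comap (c d) := by
      refine Subring.closure_le.mpr ?_
      rintro _ ⟨f, hf, rfl⟩
      show c d (ρ f) ∈ K
      rw [hc, ← map_mul, ← map_mul]
      exact hfK _ (hF.conj_mem f hf d)
    exact fun r hr => this hr
  have hcc : ∀ d r, c d⁻¹ (c d r) = r := by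
    intro d r
    rw [hc, hc, inv_inv, show ρ d⁻¹ * (ρ d * r * ρ d⁻¹) * ρ d = (ρ d⁻¹ * ρ d) * r * (ρ d⁻¹ * ρ d) by
      simp only [mul_assoc], hinv, one_mul, mul_one]
  let σ : D → K ≃+* K := fun d =>
    { toFun := fun r => ⟨c d r, hcK d r r.2⟩
      invFun := fun r => ⟨c d⁻¹ r, hcK d⁻¹ r r.2⟩
      left_inv := fun r => Subtype.ext (hcc d r)
      right_inv := fun r => Subtype.ext (by have := hcc d⁻¹ r; rwa [inv_inv] at this)
      map_mul' := fun r s => Subtype.ext (map_mul (c d) r.1 s.1)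
      map_add' := fun r s => Subtype.ext (map_add (c d) r.1 s.1) }
  have hσ : ∀ (d : D) (r : K) (x : E), (σ d r).1 (d • x) = d • r.1 x := by
    intro d r x
    show d • r.1 (d⁻¹ • d • x) = _
    rw [inv_smul_smul]
  let A : E → Set K := fun x => {r | r.1 x = 0}
  have hA0 : ∀ (x : E) (d : D), (A x).ncard ≤ (A (d • x)).ncard := by
    intro x d
    refine Set.ncard_le_ncard_of_injOn (σ d) (fun r hr => ?_) (σ d).injective.injOn
    show (σ d r).1 (d • x) = 0
    rw [hσ, show r.1 x = 0 from hr, smul_zero]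
  have hAneg : ∀ x, A (-x) = A x := by
    intro x; ext r
    show r.1 (-x) = 0 ↔ r.1 x = 0
    rw [map_neg, neg_eq_zero]
  have hA1 : ∀ x y : E, x ≠ 0 → y ≠ 0 → (A x).ncard ≤ (A y).ncard := by
    intro x y hx hy
    obtain ⟨d, h | h⟩ := htrans x y hx hy
    · exact h ▸ hA0 x d
    · rw [← hAneg y, ← h]; exact hA0 x d
  have hA2 : ∀ x y : E, x ≠ 0 → y ≠ 0 → A x ⊆ A y → A x = A y := fun x y hx hy h =>
    Set.eq_of_subset_of_ncard_le h (hA1 y x hy hx)
  have hA3 : ∀ (x : E) (s : K), s.1 x ≠ 0 → A x = A (s.1 x) := by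
    intro x s hs
    refine hA2 _ _ (fun h => hs (by rw [h, map_zero])) hs fun r hr => ?_
    show (r * s).1 x = 0
    rw [mul_comm' r s]
    show s.1 (r.1 x) = 0
    rw [show r.1 x = 0 from hr, map_zero]
  have hA4 : ∀ x y : E, x ≠ 0 → y ≠ 0 → A x ≠ A y → A (x + y) = A y := by
    intro x y hx hy hne
    obtain ⟨s, hs1, hs2⟩ := Set.not_subset.mp fun h => hne (hA2 x y hx hy h)
    have e1 : s.1 (x + y) = s.1 y := by rw [map_add, show s.1 x = 0 from hs1, zero_add]
    rw [hA3 (x + y) s (e1 ▸ hs2), e1, ← hA3 y s hs2]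
  have hA5 : ∀ x y : E, x ≠ 0 → y ≠ 0 → A x = A y := by
    intro x y hx hy
    by_contra hne
    exact hne (by rw [← hA4 x y hx hy hne, add_comm, hA4 y x hy hx (Ne.symm hne)])
  have hinj : ∀ (r : K) (x : E), x ≠ 0 → r.1 x = 0 → r = 0 := by
    intro r x hx h
    refine Subtype.ext (AddMonoidHom.ext fun y => ?_)
    by_cases hy : y = 0
    · rw [hy]; exact (map_zero r.1).trans rfl
    · have : r ∈ A y := hA5 x y hx hy ▸ h
      exact this
  have : Nontrivial K := ⟨⟨1, 0, fun h => ha (DFunLike.congr_fun (congrArg Subtype.val h) a)⟩⟩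
  have : NoZeroDivisors K := by
    refine ⟨fun {r s} hrs => ?_⟩
    by_cases h0 : s.1 a = 0
    · exact Or.inr (hinj s a ha h0)
    · exact Or.inl (hinj r _ h0 (DFunLike.congr_fun (congrArg Subtype.val hrs) a))
  have : IsDomain K := NoZeroDivisors.to_isDomain K
  have hfield : IsField K := Finite.isDomain_to_isField K
  let ev : K →+ E :=
    { toFun := fun k => k.1 a
      map_zero' := rfl
      map_add' := fun _ _ => rfl }
  have hev1 : Function.Injective ev := (injective_iff_map_eq_zero ev).mpr fun k hk => hinj k a ha hk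
  have hev2 : Function.Surjective ev := by
    by_contra hs
    obtain ⟨b, hb⟩ := not_forall.mp hs
    let ev2 : K × K →+ E :=
      { toFun := fun k => k.1.1 a + k.2.1 b
        map_zero' := add_zero _
        map_add' := fun x y => add_add_add_comm _ _ _ _ }
    have h1 : Function.Injective ev2 := by
      refine (injective_iff_map_eq_zero ev2).mpr ?_
      rintro ⟨r, s⟩ h
      have h : r.1 a + s.1 b = 0 := h
      by_cases hs0 : s = 0
      · rw [hs0, show (0 : K).1 b = 0 from rfl, add_zero] at h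
        rw [hs0, hinj r a ha h]; rfl
      · obtain ⟨t, ht⟩ := hfield.mul_inv_cancel hs0
        refine (hb ⟨-(t * r), ?_⟩).elim
        have h2 : t.1 (s.1 b) = b := by
          show (t * s).1 b = b
          rw [mul_comm' t s, ht]; rfl
        show -(t.1 (r.1 a)) = b
        rw [eq_neg_of_add_eq_zero_left h, map_neg, neg_neg, h2]
    have h2 := Nat.card_le_card_of_injective _ h1
    rw [Nat.card_prod] at h2
    have h3 : Nat.card E ≤ Nat.card (Option (D ⊕ D)) := by
      refine Nat.card_le_card_of_surjective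
        (fun o => o.elim 0 (Sum.elim (fun d => d • a) fun d => -(d • a))) fun x => ?_
      by_cases hx : x = 0
      · exact ⟨none, hx.symm⟩
      · obtain ⟨d, h | h⟩ := htrans a x ha hx
        · exact ⟨some (.inl d), h⟩
        · exact ⟨some (.inr d), by show -(d • a) = x; rw [h, neg_neg]⟩
    rw [Finite.card_option, Nat.card_sum] at h3
    have h4 := card_le_sq_of_cyclic_selfcent F hC
    have h5 : Odd (Nat.card K) := Odd.of_dvd_nat hE (AddSubgroup.card_dvd_of_injective ev hev1)
    let _ := hfield.toField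
    let χ : F →* K := (ρ.comp F.subtype).codRestrict K fun f => hfK f f.2
    have h6 : Function.Injective χ.toHomUnits := by
      refine (injective_iff_map_eq_one _).mpr fun f hf => ?_
      have h7 : ρ f = 1 := congrArg (fun z : Kˣ => (z : K).1) hf
      refine Subtype.ext (eq_of_smul_eq_smul (α := E) fun x => ?_)
      rw [← hρ, h7]; simp
    have h7 := Subgroup.card_dvd_of_injective _ h6
    rw [Nat.card_units] at h7
    have h8 : Odd (Nat.card F) := Odd.of_dvd_nat hodd F.card_subgroup_dvd_card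
    have h9 : 2 * Nat.card F ∣ Nat.card K - 1 :=
      Nat.Coprime.mul_dvd_of_dvd_of_dvd (Nat.coprime_two_left.mpr h8)
        (Nat.Odd.sub_odd h5 odd_one).two_dvd h7
    have h10 : 1 < Nat.card K := Finite.one_lt_card
    have h11 := Nat.le_of_dvd (by omega) h9
    have h12 : 0 < Nat.card F := Nat.card_pos
    have h13 : 2 * Nat.card F + 1 ≤ Nat.card K := by omega
    nlinarith [Nat.mul_le_mul h13 h13]
  let e : K ≃+ E := AddEquiv.ofBijective ev ⟨hev1, hev2⟩
  let _ := hfield.toField
  refine ⟨K, inferInstance, e.symm, fun d => ?_⟩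
  obtain ⟨u, hu⟩ := hev2 (d • a)
  have hu0 : u ≠ 0 := by
    rintro rfl
    exact ha ((smul_eq_zero_iff_eq d).mp hu.symm)
  refine ⟨Units.mk0 u hu0, σ d, fun x => ?_⟩
  obtain ⟨r, rfl⟩ := e.surjective x
  rw [e.symm_apply_apply, AddEquiv.symm_apply_eq, Units.val_mk0, mul_comm]
  show d • r.1 a = (σ d r).1 (u.1 a)
  rw [show u.1 a = d • a from hu, hσ]

end

end H42
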