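import Cfsg.Agent.H2.KpSpec
import Cfsg.Agent.H39.LnRec

/-! KP-REC: the recursion on the number of moved blocks. -/

set_option autoImplicit false
set_option linter.unusedSectionVars false

namespace H42.KpRec
open Equiv MulAction H2.Ln H2.Kp

variable {Γ α β : Type} [Group Γ] [Fintype α] [Fintype β] [DecidableEq β] {w : ℕ}

theorem sp_sub (S : Sys Γ α β w) (K : Subgroup Γ) : sp (S.im K) ⊆ S.bs K := fun b hb => by
  obtain ⟨y, ⟨x, hx, rfl⟩, h⟩ := mem_sp.1 hb
  obtain ⟨a, rfl⟩ := S.surj b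
  exact Sys.mem_bs.2 ⟨x, hx, a, rfl, fun e => h (by rw [← S.eqv, e])⟩

theorem bs_mono (S : Sys Γ α β w) {K L : Subgroup Γ} (h : L ≤ K) : S.bs L ⊆ S.bs K := fun b hb => by
  obtain ⟨x, hx, k⟩ := Sys.mem_bs.1 hb
  exact Sys.mem_bs.2 ⟨x, h hx, k⟩

theorem im_mono (S : Sys Γ α β w) {K L : Subgroup Γ} (h : L ≤ K) : S.im L ≤ S.im K :=
  Subgroup.map_mono h

theorem jobRec : H2.Kp.Peel → H2.Kp.B3 → H2.Kp.Rec := by
  intro hP hB Γ α β _ _ _ _ _ w S κ g D v N m l M hL hV hN hm hJ s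
  have P := hP Γ α β w S κ g v _ hL
  have B3 := hB Γ α β w S κ g v _ hL
  have hw : 1 ≤ w := by rcases S.w12 with e | e <;> omega
  have hv := hL.one
  induction s using Nat.strong_induction_on with | _ s ih =>
  intro hs K hK hc
  have fixo : ∀ x ∈ K, ∀ a, a ∉ sp (S.im K) → S.φ x a = a := fun x hx a ha => by
    by_contra e
    exact ha (mem_sp.2 ⟨_, ⟨x, hx, rfl⟩, e⟩)
  rcases Nat.eq_zero_or_pos s with rfl | hs0
  · have h0 : S.bs K = ∅ := Finset.card_eq_zero.1 (by omega)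
    have := (P K).2.2 fun x hx => Equiv.ext fun a => fixo x hx a fun k => by
      simpa [h0] using sp_sub S K k
    rw [h0] at this
    exact this.trans (by simpa using hV.zero)
  have hmono : v * D (s - 1) ≤ D s := by
    have := hV.mono (s - 1) (by omega)
    rwa [show s - 1 + 1 = s by omega] at this
  have ih1 : ∀ L ≤ K, (S.bs L).card ≤ s - 1 → κ L ≤ D (s - 1) := fun L h1 h2 =>
    ih (s - 1) (by omega) (by omega) L ((im_mono S h1).trans hK) h2
  by_cases h1 : (S.bs K).card < s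
  · exact (ih1 K le_rfl (by omega)).trans ((Nat.le_mul_of_pos_left _ hv).trans hmono)
  have hc' : (S.bs K).card = s := by omega
  by_cases h2 : ∃ b ∈ S.bs K, ∀ x ∈ K, S.φ x b = b
  · obtain ⟨b, hb, hf⟩ := h2
    refine ((P K).2.1 b hf).trans ((Nat.mul_le_mul_left _ (ih1 _ (S.fb_le _ _) ?_)).trans hmono)
    refine (Finset.card_le_card (S.bs_fb K {b})).trans ?_
    rw [Finset.card_sdiff_of_subset (by simpa using hb), hc', Finset.card_singleton]
  have he : sp (S.im K) = S.bs K := by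
    refine Finset.Subset.antisymm (sp_sub S K) fun b hb => ?_
    by_contra k
    exact h2 ⟨b, hb, fun x hx => fixo x hx b k⟩
  obtain ⟨b0, hb0⟩ : (sp (S.im K)).Nonempty := Finset.card_pos.1 (by rw [he]; omega)
  obtain ⟨y0, hy0, hy1⟩ := mem_sp.1 hb0
  have hy2 : y0 ≠ 1 := fun e => hy1 (by rw [e]; rfl)
  have hms : m ≤ s := by
    refine (hm y0 (hK hy0) hy2).trans ?_
    rw [← hc', ← he]
    exact Finset.card_le_card fun a ha => mem_sp.2 ⟨y0, hy0, Perm.mem_support.1 ha⟩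
  by_cases hT : Tr (S.im K)
  swap
  · simp only [Tr, not_forall, not_exists, not_and] at hT
    obtain ⟨a, ha, b, hb, hab⟩ := hT
    obtain ⟨c, hc1, hc2⟩ := H39.LnRec.orb_small ha hb hab
    have hc3 := H39.LnRec.two_le_orb hc1
    have hc4 := H39.LnRec.orb_sub hc1
    rw [he] at hc2 hc4
    rw [hc'] at hc2
    refine ((P K).1 (orb (S.im K) c) (fun x hx b hb => ?_) (Nat.mul_lt_mul_of_pos_left (by omega) hw)).trans
      ((Nat.mul_le_mul_left _ (ih _ (by omega) (by omega) _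
        ((im_mono S (S.fb_le _ _)).trans hK) ?_)).trans (hV.v1 s hs hms _ hc3 hc2))
    · obtain ⟨z, hz, rfl⟩ := mem_orb.1 hb
      exact mem_orb.2 ⟨S.φ x * z, mul_mem ⟨x, hx, rfl⟩ hz, rfl⟩
    · refine (Finset.card_le_card (S.bs_fb K _)).trans ?_
      rw [Finset.card_sdiff_of_subset hc4, hc']
  obtain ⟨j1, j2, c, B, B', j3, pB, pB', rB, rB', cB, cB', j4⟩ := hJ _ hK
    (fun e => hy2 (by rw [e] at hy0; exact hy0)) hT
  rw [he, hc'] at j1 j2 j3
  have l3 := j2.1
  have l4 := j2.2.1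
  have hb1 : w * (l - 1) < w * Fintype.card β := Nat.mul_lt_mul_of_pos_left (by omega) hw
  have hcs : c ≤ s := by rw [j3]; exact Nat.le_mul_of_pos_left _ (by omega)
  have hb2 : c < w * Fintype.card β :=
    lt_of_lt_of_le (by omega : c < Fintype.card β) (Nat.le_mul_of_pos_left _ hw)
  rcases hV.v2 s j1 hms j2 c j3 with k | ⟨u, hu, k⟩
  · obtain ⟨L1, a1, a2, a3, -⟩ := B3 K _ c B pB rB (by omega) hb1 hb2 c le_rfl
    obtain ⟨L2, b1, b2, b3, -⟩ := B3 L1 _ c B' pB' (fun x hx => rB' x (im_mono S a1 hx)) (by omega)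
      hb1 hb2 c le_rfl
    have h3 := (P L2).2.2 fun x hx => Equiv.ext fun a => by
      by_cases ha : a ∈ sp (S.im K)
      · obtain ⟨i, hi⟩ := (cB a).1 ha
        obtain ⟨j, hj⟩ := (cB' a).1 ha
        exact Finset.card_le_one.1 (j4 i j) _
          (Finset.mem_inter.2 ⟨a3 x (b1 hx) i a hi, b3 x hx j a hj⟩) _ (Finset.mem_inter.2 ⟨hi, hj⟩)
      · exact fixo x (a1 (b1 hx)) a ha
    have h4 : κ L2 ≤ v ^ s := h3.trans (Nat.pow_le_pow_right hv
      (hc' ▸ Finset.card_le_card (bs_mono S (b1.trans a1))))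
    rw [Nat.sub_self, pow_zero, mul_one] at a2 b2
    calc κ K ≤ g c * (g c * v ^ s) :=
          a2.trans (Nat.mul_le_mul_left _ (b2.trans (Nat.mul_le_mul_left _ h4)))
      _ = g c ^ 2 * v ^ s := by ring
      _ ≤ D s := k
  · obtain ⟨L, a1, a2, -, a4⟩ := B3 K _ c B pB rB (by omega) hb1 hb2 u hu.le
    have hlt : u * (l - 1) < s := by
      rw [j3, mul_comm]; exact Nat.mul_lt_mul_of_pos_left hu (by omega)
    refine a2.trans ((Nat.mul_le_mul_left _ (ih _ hlt (by omega) L ((im_mono S a1).trans hK) ?_)).trans k)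
    have h5 : S.bs L ⊆ (Finset.univ.filter fun i : Fin c => i.val < u).biUnion B := fun a ha => by
      obtain ⟨i, hi⟩ := (cB a).1 (he ▸ bs_mono S a1 ha)
      refine Finset.mem_biUnion.2 ⟨i, Finset.mem_filter.2 ⟨Finset.mem_univ _, ?_⟩, hi⟩
      by_contra k
      exact Finset.disjoint_left.1 (a4 i (by omega)) ha hi
    refine (Finset.card_le_card h5).trans (Finset.card_biUnion_le.trans ?_)
    rw [Finset.sum_congr rfl fun i _ => pB.1 i, Finset.sum_const, smul_eq_mul, Fin.card_filter_val_lt]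
    exact Nat.mul_le_mul_right _ (min_le_right _ _)

end H42.KpRec
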